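import Cfsg.Agent.H14.UThree.Radical
import Cfsg.Agent.S0280

/-! Subgroups of index below 50 in the three-dimensional unitary group over 25 elements. -/

set_option autoImplicit false

namespace Cfsg.Agent.H14.U35

open Matrix UThree
open scoped commutatorElement

attribute [local instance] UThree.vecAction

variable {F : Type*} [Field F] [Fintype F]

section

variable (hF : Fintype.card F = 25)
include hF

theorem card_eq_sq : Fintype.card F = 5 ^ 2 := by rw [hF]; rfl

theorem five_eq_zero : (5 : F) = 0 := by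
  have h : ((25 : ℕ) : F) = 0 := by rw [← hF]; exact Nat.cast_card_eq_zero F
  have h' : (5 : F) * 5 = 0 := by push_cast at h; linear_combination h
  exact (mul_eq_zero.1 h').elim id id

theorem charP_five : CharP F 5 :=
  (CharP.charP_iff_prime_eq_zero (R := F) (by norm_num)).2 (by exact_mod_cast five_eq_zero hF)

theorem card_su : Nat.card (SU 3 F 5) = 378000 := by
  have h := H3.card_SU (card_eq_sq hF) (n := 3) (by norm_num)
  rw [H3.card_GU (card_eq_sq hF) 3] at h
  norm_num [Finset.prod_range_succ, Nat.even_iff] at h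
  omega

/-- The non-zero isotropic vectors. -/
def Iso (F : Type*) [Field F] : Set (Fin 3 → F) := {y | y ≠ 0 ∧ hermForm 3 F 5 y y = 0}

theorem ncard_iso : (Iso F).ncard = 3024 := by
  have h := H3.card_isotropic_int (card_eq_sq hF) 3
  have h0 : Nat.card {y : Fin 3 → F // hermForm 3 F 5 y y = 0}
      = {y : Fin 3 → F | hermForm 3 F 5 y y = 0}.ncard := Nat.card_coe_set_eq _
  have h1 := Set.ncard_diff_singleton_add_one
    (show (0 : Fin 3 → F) ∈ {y : Fin 3 → F | hermForm 3 F 5 y y = 0} from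
      H3.hermForm_zero_left (card_eq_sq hF) 0) (Set.toFinite _)
  have h2 : {y : Fin 3 → F | hermForm 3 F 5 y y = 0} \ {0} = Iso F := by
    ext y
    simp [Iso, and_comm]
  rw [h2] at h1
  norm_num at h
  omega

theorem smul_mem_iso (g : SU 3 F 5) {y : Fin 3 → F} (hy : y ∈ Iso F) : g • y ∈ Iso F :=
  ⟨fun h => hy.1 (MulAction.injective g (h.trans (Matrix.mulVec_zero _).symm)),
    (form_smul g y y).trans hy.2⟩

theorem orbit_stab (H : Subgroup (SU 3 F 5)) (v : Fin 3 → F) :
    (MulAction.orbit H v).ncard * Nat.card ↥(H ⊓ MulAction.stabilizer (SU 3 F 5) v) = Nat.card H := by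
  have h := Nat.card_congr (MulAction.orbitProdStabilizerEquivGroup H v)
  rw [Nat.card_prod, Nat.card_coe_set_eq] at h
  rw [← h]
  congr 1
  exact Nat.card_congr
    { toFun := fun g => ⟨⟨g, g.2.1⟩, g.2.2⟩
      invFun := fun g => ⟨g.1.1, g.1.2, g.2⟩
      left_inv := fun _ => rfl
      right_inv := fun _ => rfl }

theorem orbit_subset (H : Subgroup (SU 3 F 5)) {v : Fin 3 → F} (hv : v ∈ Iso F) :
    MulAction.orbit H v ⊆ Iso F := by
  rintro _ ⟨g, rfl⟩
  exact smul_mem_iso hF g.1 hv

theorem pow_five {v : Fin 3 → F} (hv : v ∈ Iso F) {g : SU 3 F 5} (hg : g ∈ unip 5 v) :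
    g ^ 5 = 1 := by
  haveI := charP_five hF
  haveI : Fact (Nat.Prime 5) := ⟨by norm_num⟩
  set M : Matrix (Fin 3) (Fin 3) F := (g.1 : Matrix (Fin 3) (Fin 3) F) with hM
  have h1 : ∀ y, (M - 1) *ᵥ y = g • y - y := fun y => by
    rw [Matrix.sub_mulVec, Matrix.one_mulVec, hM, smul_def]
  have h3 : (M - 1) ^ 3 = 0 := Matrix.ext_of_mulVec_single fun i => by
    generalize (Pi.single i 1 : Fin 3 → F) = y
    have hy : hermForm 3 F 5 (g • y - y) v = 0 := by
      rw [H3.hermForm_sub_left (card_eq_sq hF)]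
      conv_lhs => enter [1]; rw [← hg.1]
      rw [form_smul, sub_self]
    obtain ⟨a, ha⟩ := hg.2 _ hy
    rw [pow_succ, pow_two, ← Matrix.mulVec_mulVec, ← Matrix.mulVec_mulVec, h1 y,
      h1 (g • y - y), ha, add_sub_cancel_left, h1, smul_comm', hg.1, sub_self, Matrix.zero_mulVec]
  have h5 : (M - 1) ^ 5 = 0 := by rw [pow_succ, pow_succ, h3, zero_mul, zero_mul]
  refine H3.SU_ext ?_
  have hM5 : M ^ 5 = 1 := by
    have e : (M - 1) ^ 5 = M ^ 5 - 1 := by
      rw [sub_pow_char_of_commute 5 (Commute.one_right M), one_pow]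
    rw [e, sub_eq_zero] at h5
    exact h5
  simp only [SubmonoidClass.coe_pow, Matrix.SpecialLinearGroup.coe_pow, OneMemClass.coe_one,
    Matrix.SpecialLinearGroup.coe_one]
  exact hM5

theorem card_unip {v : Fin 3 → F} (hv : v ∈ Iso F) : Nat.card (unip 5 v) = 125 := by
  haveI : Fact (Nat.Prime 5) := ⟨by norm_num⟩
  have hp : IsPGroup 5 (unip 5 v) := fun g =>
    ⟨1, Subtype.ext (by rw [SubmonoidClass.coe_pow, pow_one]; exact pow_five hF hv g.2)⟩
  obtain ⟨k, hk⟩ := IsPGroup.iff_card.1 hp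
  have hdvd : 5 ^ k ∣ 378000 := by
    rw [← hk, ← card_su hF]
    exact Subgroup.card_subgroup_dvd_card _
  have hk3 : k ≤ 3 := by
    by_contra hc
    have h4 : 5 ^ 4 ∣ 378000 := (pow_dvd_pow 5 (by omega : 4 ≤ k)).trans hdvd
    norm_num at h4
  have h := orbit_stab hF (⊤ : Subgroup (SU 3 F 5)) v
  rw [top_inf_eq, stabilizer_eq_unip (card_eq_sq hF) hv.1 hv.2, Subgroup.card_top, card_su hF,
    hk] at h
  have hle := Set.ncard_le_ncard (orbit_subset hF ⊤ hv) (Set.toFinite _)
  rw [ncard_iso hF] at hle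
  rw [hk]
  interval_cases k <;> omega

theorem exists_generator : ∃ ζ : F, ζ ≠ 0 ∧ ζ ^ 12 ≠ 1 := by
  classical
  obtain ⟨u, hu⟩ := IsCyclic.exists_ofOrder_eq_natCard (α := Fˣ)
  have hc : Nat.card Fˣ = 24 := by rw [H3.card_units_eq (card_eq_sq hF)]
  refine ⟨u, u.ne_zero, fun h => ?_⟩
  have h' : u ^ 12 = 1 := Units.ext (by simpa using h)
  have := orderOf_dvd_of_pow_eq_one h'
  rw [hu, hc] at this
  norm_num at this

/-- A subgroup of index below 50 contains all transvections. -/
theorem trans_mem (H : Subgroup (SU 3 F 5)) (hm : H.index < 50) {v : Fin 3 → F} (hv : v ∈ Iso F)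
    {c : F} {A : SU 3 F 5} (hA : (A.1 : Matrix (Fin 3) (Fin 3) F) = unitaryTransvection 3 5 v c) :
    A ∈ H := by
  classical
  haveI : Fact (Nat.Prime 5) := ⟨by norm_num⟩
  have hc : c + c ^ 5 = 0 := H3.trace_zero_of_transvection_preserves (card_eq_sq hF) hv.1 hv.2
    (hA ▸ H3.mem_SU_iff.1 A.2)
  have hU := card_unip hF hv
  set U := unip 5 v with hUdef
  have hAU : A ∈ U := trans_mem_unip (card_eq_sq hF) hv.2 hA
  have hrel := Subgroup.card_mul_index (H.subgroupOf U)
  rw [hU] at hrel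
  have hrel' : (H.subgroupOf U).index = H.relIndex U := rfl
  have hle : H.relIndex U ≤ H.index := by
    rw [← Subgroup.relIndex_top_right]
    exact Subgroup.relIndex_le_of_le_right le_top (by
      rw [Subgroup.relIndex_top_right]; exact Subgroup.index_ne_zero_of_finite)
  have hdvd : H.relIndex U ∣ 5 ^ 3 := ⟨Nat.card (H.subgroupOf U), by
    rw [← hrel', mul_comm]; exact hrel.symm⟩
  obtain ⟨j, hj, hjr⟩ := (Nat.dvd_prime_pow (by norm_num)).1 hdvd
  have hj2 : j ≤ 2 := by
    by_contra hc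
    have : j = 3 := by omega
    subst this
    omega
  interval_cases j
  · exact Subgroup.relIndex_eq_one.1 (by rw [hjr]; norm_num) hAU
  · have hN : (H.subgroupOf U).Normal := Subgroup.normal_of_index_eq_minFac_card (by
      rw [hrel', hjr, hU]; norm_num)
    haveI := hN
    have hcq : Nat.card (U ⧸ H.subgroupOf U) = 5 := by
      rw [← Subgroup.index_eq_card, hrel', hjr]; norm_num
    haveI : IsCyclic (U ⧸ H.subgroupOf U) := isCyclic_of_prime_card hcq
    obtain ⟨P, hP, R, hR, rfl⟩ := trans_commutator (card_eq_sq hF) hv.1 hv.2 hc A hA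
    obtain ⟨g, hg⟩ := IsCyclic.exists_generator (α := U ⧸ H.subgroupOf U)
    have hcomm : ∀ a b : U ⧸ H.subgroupOf U, a * b = b * a := fun a b => by
      obtain ⟨i, rfl⟩ := Subgroup.mem_zpowers_iff.1 (hg a)
      obtain ⟨k, rfl⟩ := Subgroup.mem_zpowers_iff.1 (hg b)
      rw [← _root_.zpow_add, ← _root_.zpow_add, add_comm]
    have e : (QuotientGroup.mk' (H.subgroupOf U)) ⁅(⟨P, hP⟩ : U), ⟨R, hR⟩⁆ = 1 := by
      rw [map_commutatorElement, commutatorElement_eq_one_iff_mul_comm]
      exact hcomm _ _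
    rw [QuotientGroup.mk'_apply, QuotientGroup.eq_one_iff, Subgroup.mem_subgroupOf] at e
    simpa [commutatorElement_def] using e
  · have hW : Nat.card ↥(H ⊓ U) = 5 := by
      have e : Nat.card (H.subgroupOf U) = Nat.card ↥(H ⊓ U) := by
        refine Nat.card_congr
          { toFun := fun g => ⟨g.1.1, g.2, g.1.2⟩
            invFun := fun g => ⟨⟨g.1, g.2.2⟩, g.2.1⟩
            left_inv := fun _ => rfl
            right_inv := fun _ => rfl }
      rw [← e]
      rw [hrel', hjr] at hrel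
      omega
    obtain ⟨x, w, T⟩ := exists_trip (card_eq_sq hF) hv.1 hv.2
    haveI : Nontrivial ↥(H ⊓ U) := Finite.one_lt_card_iff_nontrivial.1 (by omega)
    obtain ⟨⟨w1, hw1⟩, hne⟩ := exists_ne (1 : ↥(H ⊓ U))
    have hgen : Subgroup.zpowers (⟨w1, hw1⟩ : ↥(H ⊓ U)) = ⊤ := zpowers_eq_top_of_prime_card hW hne
    set TV := U ⊓ MulAction.stabilizer (SU 3 F 5) x with hTV
    by_cases hx : w1 • x = x
    · have hWT : H ⊓ U ≤ TV := fun g hg => by
        obtain ⟨i, hi⟩ := Subgroup.mem_zpowers_iff.1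
          (hgen ▸ Subgroup.mem_top (⟨g, hg⟩ : ↥(H ⊓ U)) :
            (⟨g, hg⟩ : ↥(H ⊓ U)) ∈ Subgroup.zpowers ⟨w1, hw1⟩)
        have e : w1 ^ i = g := by simpa using congrArg Subtype.val hi
        exact e ▸ zpow_mem (⟨hw1.2, hx⟩ : w1 ∈ TV) i
      have hcard : Nat.card TV ≤ 5 := by
        choose f hf hfe using fun g : TV => T.trans_of_fix (card_eq_sq hF) g.2.1 g.2.2
        calc Nat.card TV ≤ Nat.card {y : F // y + y ^ 5 = 0} :=
              Nat.card_le_card_of_injective (fun g => ⟨f g, hf g⟩) fun g k h =>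
                Subtype.ext (H3.SU_ext (by rw [hfe g, hfe k, Subtype.mk_eq_mk.1 h]))
          _ = 5 := H3.card_trace_zero (card_eq_sq hF)
      have heq : H ⊓ U = TV := Subgroup.eq_of_le_of_card_ge hWT (by omega)
      have hAx : A • x = x := by
        rw [smul_def, hA, H3.unitaryTransvection_mulVec, T.xv, mul_zero, zero_smul, add_zero]
      exact (heq.symm ▸ (⟨hAU, hAx⟩ : A ∈ TV) : A ∈ H ⊓ U).1
    · exfalso
      obtain ⟨ζ, hζ0, hζ⟩ := exists_generator hF
      have horb := orbit_stab hF H v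
      rw [stabilizer_eq_unip (card_eq_sq hF) hv.1 hv.2, hW] at horb
      have hidx := Subgroup.card_mul_index H
      rw [card_su hF] at hidx
      have hmul : Nat.card H * H.index ≤ Nat.card H * 49 := Nat.mul_le_mul_left _ (by omega)
      have hsub := orbit_subset hF H hv
      have hsub' : (fun y => ζ • y) '' MulAction.orbit H v ⊆ Iso F := by
        rintro _ ⟨y, hy, rfl⟩
        exact ⟨smul_ne_zero hζ0 (hsub hy).1, by
          rw [H3.hermForm_smul_left (card_eq_sq hF), H3.hermForm_smul_right (card_eq_sq hF),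
            (hsub hy).2, mul_zero, mul_zero]⟩
      by_cases hdisj : Disjoint (MulAction.orbit H v) ((fun y => ζ • y) '' MulAction.orbit H v)
      · have h1 := Set.ncard_union_eq hdisj (Set.toFinite _) (Set.toFinite _)
        rw [Set.ncard_image_of_injective _ (smul_right_injective _ hζ0)] at h1
        have h2 := Set.ncard_le_ncard (Set.union_subset hsub hsub') (Set.toFinite _)
        rw [h1, ncard_iso hF] at h2
        omega
      obtain ⟨y, ⟨g1, hg1⟩, ⟨y', ⟨g2, hg2⟩, hyy⟩⟩ := Set.not_disjoint_iff.1 hdisj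
      change g1.1 • v = y at hg1
      change g2.1 • v = y' at hg2
      change ζ • y' = y at hyy
      set g := g2.1⁻¹ * g1.1 with hgdef
      have hgH : g ∈ H := mul_mem (inv_mem g2.2) g1.2
      have hgv : g • v = ζ • v := by
        rw [hgdef, mul_smul, hg1, ← hyy, ← hg2, inv_smul_eq_iff, smul_comm']
      have hgiv : g⁻¹ • v = ζ⁻¹ • v := by
        rw [inv_smul_eq_iff, smul_comm', hgv, inv_smul_smul₀ hζ0]
      have hxi : hermForm 3 F 5 (g⁻¹ • x) v = 0 := by
        have h1 := form_smul g (g⁻¹ • x) v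
        rw [smul_inv_smul, hgv, H3.hermForm_smul_right (card_eq_sq hF), T.xv, mul_zero] at h1
        exact h1.symm
      set μ := hermForm 3 F 5 (g⁻¹ • x) x with hμdef
      set e := hermForm 3 F 5 (g⁻¹ • x) w with hedef
      have hgix : g⁻¹ • x = e • v + μ • x := by
        conv_lhs => rw [T.coord (card_eq_sq hF) (g⁻¹ • x), hxi]
        rw [zero_smul, add_zero]
      have hμ6 : μ * μ ^ 5 = 1 := by
        have h1 := form_smul g⁻¹ x x
        rw [hgix, H3.hermForm_add_left (card_eq_sq hF), H3.hermForm_add_right (card_eq_sq hF),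
          H3.hermForm_add_right (card_eq_sq hF), H3.hermForm_smul_left (card_eq_sq hF),
          H3.hermForm_smul_left (card_eq_sq hF), H3.hermForm_smul_left (card_eq_sq hF),
          H3.hermForm_smul_left (card_eq_sq hF), H3.hermForm_smul_right (card_eq_sq hF),
          H3.hermForm_smul_right (card_eq_sq hF), H3.hermForm_smul_right (card_eq_sq hF),
          H3.hermForm_smul_right (card_eq_sq hF), T.vv, T.xv, T.vx (card_eq_sq hF), T.xx] at h1
        linear_combination h1
      obtain ⟨a, ha⟩ := hw1.2.2 x T.xv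
      have ha0 : a ≠ 0 := fun h0 => hx (by rw [ha, h0, zero_smul, add_zero])
      have hconj : g * w1 * g⁻¹ ∈ H ⊓ U := by
        refine Subgroup.mem_inf.2 ⟨mul_mem (mul_mem hgH hw1.1) (inv_mem hgH), ?_⟩
        rw [hUdef, ← stabilizer_eq_unip (card_eq_sq hF) hv.1 hv.2, MulAction.mem_stabilizer_iff,
          mul_smul, mul_smul, hgiv, smul_comm', hw1.2.1, smul_comm', hgv, inv_smul_smul₀ hζ0]
      obtain ⟨k, hk⟩ := Subgroup.mem_zpowers_iff.1
        (hgen ▸ Subgroup.mem_top (⟨_, hconj⟩ : ↥(H ⊓ U)) :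
          (⟨_, hconj⟩ : ↥(H ⊓ U)) ∈ Subgroup.zpowers ⟨w1, hw1⟩)
      have hk' : w1 ^ k = g * w1 * g⁻¹ := by simpa using congrArg Subtype.val hk
      have hpow : ∀ i : ℕ, (w1 ^ i) • x = x + ((i : F) * a) • v := by
        intro i
        induction i with
        | zero => rw [pow_zero, one_smul, Nat.cast_zero, zero_mul, zero_smul, add_zero]
        | succ i ih =>
          rw [pow_succ', mul_smul, ih, smul_add', smul_comm', hw1.2.1, ha, Nat.cast_succ]
          module
      obtain ⟨i, hi⟩ : ∃ i : ℕ, w1 ^ i = w1 ^ k := by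
        obtain ⟨i, hi⟩ := (isOfFinOrder_of_finite w1).mem_powers_iff_mem_zpowers.2
          (Subgroup.mem_zpowers_iff.2 ⟨k, rfl⟩)
        exact ⟨i, hi⟩
      have hval : (g * w1 * g⁻¹) • x = x + (ζ * (μ * a)) • v := by
        rw [mul_smul, mul_smul, hgix, smul_add', smul_comm', smul_comm', hw1.2.1, ha,
          smul_add (μ : F), smul_smul, ← add_assoc, ← hgix, smul_add', smul_inv_smul, smul_comm',
          hgv, smul_smul]
        congr 2
        ring
      have hkey : (i : F) * a = ζ * (μ * a) := by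
        have h1 := hpow i
        rw [hi, hk', hval] at h1
        exact (smul_left_injective F hv.1 (add_left_cancel h1)).symm
      have hki : (i : F) = ζ * μ := mul_right_cancel₀ ha0 (by linear_combination hkey)
      haveI := charP_five hF
      have hfix : (ζ * μ) ^ 5 = ζ * μ := by
        rw [← hki, ← frobenius_def, map_natCast]
      apply hζ
      have hμ0 : μ ≠ 0 := left_ne_zero_of_mul_eq_one hμ6
      have h4 : ζ ^ 4 * μ ^ 4 = 1 := by
        apply mul_left_cancel₀ (mul_ne_zero hζ0 hμ0)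
        linear_combination hfix
      linear_combination (ζ ^ 8 * μ ^ 8 + ζ ^ 4 * μ ^ 4 + 1) * h4 -
        ζ ^ 12 * (μ * μ ^ 5 + 1) * hμ6

/-- Proper subgroups of `SU(3, 5)` have index at least 50. -/
theorem index_ge (H : Subgroup (SU 3 F 5)) (hH : H ≠ ⊤) : 50 ≤ H.index := by
  by_contra hlt
  apply hH
  rw [eq_top_iff, ← H3.su_closure_eq_top (card_eq_sq hF) (by norm_num) (by norm_num),
    Subgroup.closure_le]
  rintro A ⟨v, c, hv, hA⟩
  rcases eq_or_ne v 0 with rfl | hv0
  · have : A = 1 := H3.SU_ext (by rw [hA]; simp [unitaryTransvection])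
    rw [this]
    exact one_mem _
  · exact trans_mem hF H (by omega) ⟨hv0, hv⟩ hA

end

end Cfsg.Agent.H14.U35
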