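import Cfsg.Agent.H14.U35.Checks
import Cfsg.Agent.H14.U35.LowerBound
import Cfsg.Agent.H14.UTrans

/-! A subgroup of index 50 in the three-dimensional unitary group over 25 elements. -/

set_option autoImplicit false

namespace Cfsg.Agent.H14.U35

open Matrix

attribute [local instance] UThree.vecAction

variable {F : Type*} [Field F] {I : F}

/-- The lines of a point set. -/
def setLines (I : F) (j : Fin 50) : Set (Submodule F (Fin 3 → F)) :=
  {L | ∃ i : Fin 105, L = F ∙ enc I (setPt j i)}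

/-- The image of a line. -/
def lineMap (g : SU 3 F 5) (L : Submodule F (Fin 3 → F)) : Submodule F (Fin 3 → F) :=
  L.map (Matrix.mulVecLin (g.1 : Matrix (Fin 3) (Fin 3) F))

theorem lineMap_mul (g h : SU 3 F 5) (L : Submodule F (Fin 3 → F)) :
    lineMap (g * h) L = lineMap g (lineMap h L) := by
  rw [lineMap, lineMap, lineMap, H3.SU_mul_val, Matrix.mulVecLin_mul, Submodule.map_comp]

theorem lineMap_one (L : Submodule F (Fin 3 → F)) : lineMap (1 : SU 3 F 5) L = L := by
  simp [lineMap]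

theorem lineMap_span (g : SU 3 F 5) (y : Fin 3 → F) :
    lineMap g (F ∙ y) = F ∙ ((g.1 : Matrix (Fin 3) (Fin 3) F) *ᵥ y) := by
  rw [lineMap, Submodule.map_span, Set.image_singleton]
  rfl

/-- The matrix maps every set into the set given by the permutation. -/
def Induces (I : F) (g : SU 3 F 5) (σ : Equiv.Perm (Fin 50)) : Prop :=
  ∀ j, ∀ L ∈ setLines I j, lineMap g L ∈ setLines I (σ j)

theorem induces_one (I : F) : Induces I 1 1 := fun j L hL => by
  rw [lineMap_one, Equiv.Perm.one_apply]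
  exact hL

theorem Induces.mul {g h : SU 3 F 5} {σ τ : Equiv.Perm (Fin 50)} (hg : Induces I g σ)
    (hh : Induces I h τ) : Induces I (g * h) (σ * τ) := fun j L hL => by
  rw [lineMap_mul, Equiv.Perm.mul_apply]
  exact hg _ _ (hh j L hL)

theorem Induces.pow {g : SU 3 F 5} {σ : Equiv.Perm (Fin 50)} (hg : Induces I g σ) :
    ∀ n : ℕ, Induces I (g ^ n) (σ ^ n)
  | 0 => by rw [pow_zero, pow_zero]; exact induces_one I
  | n + 1 => by rw [pow_succ, pow_succ]; exact (hg.pow n).mul hg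

theorem Induces.inv [Finite F] {g : SU 3 F 5} {σ : Equiv.Perm (Fin 50)} (hg : Induces I g σ) :
    Induces I g⁻¹ σ⁻¹ := by
  obtain ⟨n, hn⟩ : ∃ n, Nat.card (SU 3 F 5) * Nat.card (Equiv.Perm (Fin 50)) = n + 1 :=
    ⟨_, (Nat.succ_pred_eq_of_pos (Nat.mul_pos Nat.card_pos Nat.card_pos)).symm⟩
  have h1 : g ^ (n + 1) = 1 := by rw [← hn, pow_mul, pow_card_eq_one', one_pow]
  have h2 : σ ^ (n + 1) = 1 := by rw [← hn, mul_comm, pow_mul, pow_card_eq_one', one_pow]
  rw [pow_succ] at h1 h2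
  rw [← eq_inv_of_mul_eq_one_left h1, ← eq_inv_of_mul_eq_one_left h2]
  exact hg.pow n

/-- The matrices inducing a permutation of the sets. -/
def permuting [Finite F] (I : F) : Subgroup (SU 3 F 5) where
  carrier := {g | ∃ σ, Induces I g σ}
  one_mem' := ⟨1, induces_one I⟩
  mul_mem' := fun ⟨σ, hσ⟩ ⟨τ, hτ⟩ => ⟨σ * τ, hσ.mul hτ⟩
  inv_mem' := fun ⟨σ, hσ⟩ => ⟨σ⁻¹, hσ.inv⟩

/-- The matrices fixing the first set. -/
def setFix [Finite F] (I : F) : Subgroup (SU 3 F 5) where
  carrier := {g | ∃ σ, Induces I g σ ∧ σ 0 = 0}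
  one_mem' := ⟨1, induces_one I, rfl⟩
  mul_mem' := fun ⟨σ, hσ, h⟩ ⟨τ, hτ, h'⟩ =>
    ⟨σ * τ, hσ.mul hτ, by rw [Equiv.Perm.mul_apply, h', h]⟩
  inv_mem' := fun ⟨σ, hσ, h⟩ => ⟨σ⁻¹, hσ.inv, by rw [Equiv.Perm.inv_eq_iff_eq, h]⟩

section

variable [Fintype F] (hF : Fintype.card F = 25) (hI : I * I = 2)
include hF hI

theorem I_trace : I + I ^ 5 = 0 := by
  linear_combination I * (I * I + 2) * hI + I * five_eq_zero hF

theorem I_ne_zero : I ≠ 0 := by
  rintro rfl
  exact one_ne_zero (α := F) (by linear_combination five_eq_zero hF + 2 * hI)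

theorem isotropic_enc {n : ℕ} (h : hermN n n = 0) : hermForm 3 F 5 (enc I n) (enc I n) = 0 := by
  rw [hermForm_enc (five_eq_zero hF) hI, h]; simp [el]

theorem pt_isotropic {i : ℕ} (hi : i < 126) : hermN (pt i) (pt i) = 0 := by
  have h := H15.allBlocks_eq_true pt_ok hi
  rw [ptOk, Bool.and_eq_true, Nat.beq_eq] at h
  exact h.1

theorem ctr_lt {g : ℕ} (hg : g < 3) : genPts.getD g 0 < 126 := by
  have h := List.all_eq_true.1 genPts_ok.1 _
    (H15.getD_mem (d := 0) (show g < genPts.length by rw [genPts_ok.2.1]; exact hg))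
  simpa [Nat.blt, Nat.succ_le_iff] using h

/-- A transvection at a point of the certificate. -/
def tp {i : ℕ} (hi : i < 126) : SU 3 F 5 :=
  H3.suTrans (card_eq_sq hF) (enc I (pt i)) I (isotropic_enc hF hI (pt_isotropic hF hI hi))
    (I_trace hF hI)

theorem el_ne_zero {a : ℕ} (ha : a < 25) (h0 : a ≠ 0) : el I a ≠ 0 := fun h =>
  h0 ((el_eq_zero (five_eq_zero hF) hI ha).1 h)

theorem gen_img {g : ℕ} (hg : g < 3) (j : Fin 50) (i : Fin 105) :
    ∃ (h : setTo g j < 50) (k : Fin 105), lineMap (tp hF hI (ctr_lt hF hI hg))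
      (F ∙ enc I (setPt j i)) = F ∙ enc I (setPt (⟨setTo g j, h⟩ : Fin 50) k) := by
  have h5 := five_eq_zero hF
  have hk : g * 5250 + (j : ℕ) * 105 + i < 15750 := by omega
  have h := H15.allBlocks_eq_true img_ok hk
  have e1 : Nat.div (g * 5250 + (j : ℕ) * 105 + i) 5250 = g := by
    show (g * 5250 + (j : ℕ) * 105 + i) / 5250 = g
    omega
  have e2 : Nat.mod (Nat.div (g * 5250 + (j : ℕ) * 105 + i) 105) 50 = j := by
    show (g * 5250 + (j : ℕ) * 105 + i) / 105 % 50 = j
    omega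
  have e3 : Nat.mod (g * 5250 + (j : ℕ) * 105 + i) 105 = i := by
    show (g * 5250 + (j : ℕ) * 105 + i) % 105 = i
    omega
  simp only [e1, e2, e3, imgOk, Bool.and_eq_true, Nat.beq_eq, Nat.blt, Nat.ble_eq,
    Nat.succ_le_iff, Bool.not_eq_true', ← Bool.not_eq_true] at h
  obtain ⟨⟨⟨⟨h1, h2⟩, h3⟩, h4⟩, h6⟩ := h
  refine ⟨h1, ⟨_, h2⟩, ?_⟩
  rw [lineMap_span]
  show F ∙ (unitaryTransvection 3 5 (enc I (ctr g)) I *ᵥ enc I (setPt j i)) = _
  rw [← tN_enc h5 hI, h6, enc_smulN h5 hI,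
    Submodule.span_singleton_smul_eq (el_ne_zero hF hI h3 h4).isUnit]

theorem tp_pow_five {i : ℕ} (hi : i < 126) : tp hF hI hi ^ 5 = 1 := by
  rcases eq_or_ne (enc I (pt i)) 0 with h | h
  · have : tp hF hI hi = 1 := H3.SU_ext (by
      show unitaryTransvection 3 5 (enc I (pt i)) I = _
      rw [h]; simp [unitaryTransvection])
    rw [this, one_pow]
  · exact pow_five hF ⟨h, isotropic_enc hF hI (pt_isotropic hF hI hi)⟩
      (UThree.trans_mem_unip (card_eq_sq hF) (isotropic_enc hF hI (pt_isotropic hF hI hi)) rfl)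

theorem gen_mem {g : ℕ} (hg : g < 3) : tp hF hI (ctr_lt hF hI hg) ∈ permuting I := by
  have hlt : ∀ j : Fin 50, setTo g j < 50 := fun j => (gen_img hF hI hg j 0).1
  set t := tp hF hI (ctr_lt hF hI hg) with ht
  set f : Fin 50 → Fin 50 := fun j => ⟨setTo g j, hlt j⟩ with hf
  have key : ∀ j, ∀ L ∈ setLines I j, lineMap t L ∈ setLines I (f j) := by
    rintro j _ ⟨i, rfl⟩
    obtain ⟨_, k, hk⟩ := gen_img hF hI hg j i
    exact ⟨k, hk⟩
  have hiter : ∀ n j, ∀ L ∈ setLines I j, lineMap (t ^ n) L ∈ setLines I (f^[n] j) := by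
    intro n
    induction n with
    | zero => intro j L hL; rwa [pow_zero, lineMap_one]
    | succ n ih =>
      intro j L hL
      rw [pow_succ', lineMap_mul, Function.iterate_succ_apply']
      exact key _ _ (ih j L hL)
  have hinj : Function.Injective f := by
    have hall : ∀ g : Fin 3, ∀ j : Fin 50,
        setTo g (setTo g (setTo g (setTo g (setTo g j)))) = j := by decide +kernel
    have hval : ∀ j : Fin 50, (f j : ℕ) = setTo g j := fun j => by rw [hf]
    have this : ∀ j : Fin 50, f^[5] j = j := by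
      intro j
      refine Fin.ext ?_
      simp only [Function.iterate_succ_apply', Function.iterate_zero_apply, hval]
      exact hall ⟨g, hg⟩ j
    intro a b h
    rw [← this a, ← this b]
    simp only [Function.iterate_succ_apply, Function.iterate_zero_apply, h]
  exact ⟨Equiv.ofBijective f (Finite.injective_iff_bijective.1 hinj), key⟩

/-- The transvections with a given centre permute the sets. -/
def AllTr (I : F) (v : Fin 3 → F) : Prop :=
  ∀ c : F, c + c ^ 5 = 0 → ∃ g ∈ permuting I, UTrans.IsTr v c g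

theorem allTr_of_one {v : Fin 3 → F} (hv : hermForm 3 F 5 v v = 0) {c₀ : F} (h0 : c₀ ≠ 0)
    (htr : c₀ + c₀ ^ 5 = 0) {g : SU 3 F 5} (hg : g ∈ permuting I) (ht : UTrans.IsTr v c₀ g) :
    AllTr I v := by
  intro c hc
  have h5 := five_eq_zero hF
  have key : ∀ k : ℕ, UTrans.IsTr v ((k : F) * c₀) (g ^ k) := by
    intro k
    induction k with
    | zero => rw [pow_zero, Nat.cast_zero, zero_mul]; exact UTrans.isTr_one v
    | succ k ih =>
      rw [pow_succ, Nat.cast_succ, add_mul, one_mul]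
      exact ih.mul (card_eq_sq hF) hv ht
  obtain ⟨a, ha, hea⟩ := el_surjective h5 hI hF (c / c₀)
  obtain ⟨k, hk⟩ : ∃ k : ℕ, (k : F) = c / c₀ := by
    refine ⟨a, ?_⟩
    have hfix : (c / c₀) ^ 5 = c / c₀ := by
      rw [div_pow, show c ^ 5 = -c by linear_combination hc,
        show c₀ ^ 5 = -c₀ by linear_combination htr, neg_div_neg_eq]
    rw [← hea, ← el_fconj h5 hI] at hfix
    have := el_injOn h5 hI (by
      show a % 5 + 5 * (4 * (a / 5) % 5) < 25
      omega) ha hfix
    have h0' : a / 5 = 0 := by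
      have hh : a % 5 + 5 * (4 * (a / 5) % 5) = a := this
      omega
    rw [← hea, el, h0', Nat.cast_zero, zero_mul, add_zero]
  refine ⟨g ^ k, pow_mem hg k, ?_⟩
  have := key k
  rwa [hk, div_mul_cancel₀ _ h0] at this

theorem pt_mem : ∀ {i : ℕ}, i < 126 → AllTr I (enc I (pt i)) := by
  intro i
  induction i using Nat.strong_induction_on with
  | _ i ih =>
    intro hi
    have h5 := five_eq_zero hF
    have h := H15.allBlocks_eq_true pt_ok hi
    simp only [ptOk, Bool.and_eq_true, Bool.or_eq_true, Nat.beq_eq, Nat.blt, Nat.ble_eq,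
      Nat.succ_le_iff, Bool.not_eq_true', ← Bool.not_eq_true] at h
    rcases h.2 with rfl | ⟨⟨⟨⟨hp, hg⟩, hl⟩, hl25⟩, he⟩
    · have h0 := gen_mem hF hI (show 0 < 3 by norm_num)
      refine allTr_of_one hF hI (isotropic_enc hF hI (pt_isotropic hF hI hi)) (I_ne_zero hF hI)
        (I_trace hF hI) h0 ?_
      show unitaryTransvection 3 5 (enc I (pt (genPts.getD 0 0))) I = _
      rw [genPts_ok.2.2]
    · have hA := gen_mem hF hI hg
      obtain ⟨B, hB, hBt⟩ := ih _ hp (by omega) I (I_trace hF hI)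
      have hc := congrArg (enc I) he
      rw [tN_enc h5 hI, enc_smulN h5 hI] at hc
      set l := el I (Nat.mod (edge i) 32) with hldef
      have hl0 : l ≠ 0 := el_ne_zero hF hI hl25 hl
      have h24 : l ^ 24 = 1 := by
        have h := FiniteField.pow_card_sub_one_eq_one l hl0
        rwa [hF] at h
      exact allTr_of_one hF hI (isotropic_enc hF hI (pt_isotropic hF hI hi))
        (mul_ne_zero (I_ne_zero hF hI) (pow_ne_zero _ hl0))
        (by linear_combination l ^ 6 * I_trace hF hI + l ^ 6 * I ^ 5 * h24)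
        (mul_mem (mul_mem hA hB) (inv_mem hA))
        (hBt.conj (card_eq_sq hF) (tp hF hI (ctr_lt hF hI hg)) hc)

theorem exists_code25 (v : Fin 3 → F) : ∃ n < 15625, enc I (code25 n) = v := by
  choose f hf hfv using fun i : ℕ => el_surjective (five_eq_zero hF) hI hF
    (if h : i < 3 then v ⟨i, h⟩ else 0)
  have h0 := hf 0; have h1 := hf 1; have h2 := hf 2
  refine ⟨f 0 + 25 * f 1 + 625 * f 2, by omega, funext fun i => ?_⟩
  have hd : Nat.mod (Nat.div (f 0 + 25 * f 1 + 625 * f 2) (Nat.pow 25 (i : ℕ))) 25 = f i := by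
    show (f 0 + 25 * f 1 + 625 * f 2) / 25 ^ (i : ℕ) % 25 = f i
    fin_cases i <;> dsimp <;> norm_num <;> omega
  have hlt : ∀ k, Nat.mod (Nat.div (f 0 + 25 * f 1 + 625 * f 2) (Nat.pow 25 k)) 25 < 32 :=
    fun k => lt_trans (Nat.mod_lt _ (by norm_num : (25 : ℕ) > 0)) (by norm_num : (25 : ℕ) < 32)
  simp only [enc, code25, dig_pack3 hlt, hd, hfv, dif_pos i.2, Fin.eta]

theorem permuting_eq_top : permuting I = ⊤ := by
  rw [eq_top_iff, ← H3.su_closure_eq_top (card_eq_sq hF) (by norm_num) (by norm_num),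
    Subgroup.closure_le]
  rintro A ⟨v, c, hv, hA⟩
  have h5 := five_eq_zero hF
  rcases eq_or_ne v 0 with rfl | hv0
  · rw [show A = 1 from H3.SU_ext (by rw [hA]; simp [unitaryTransvection])]
    exact one_mem _
  have hc : c + c ^ 5 = 0 := H3.trace_zero_of_transvection_preserves (card_eq_sq hF) hv0 hv
    (hA ▸ H3.mem_SU_iff.1 A.2)
  obtain ⟨n, hn, rfl⟩ := exists_code25 hF hI v
  have hn0 : n ≠ 0 := fun h => hv0 (by
    subst h
    funext i
    show el I (dig (code25 0) i) = 0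
    rw [show code25 0 = 0 from rfl, dig_eq]
    simp [el])
  rw [hermForm_enc h5 hI, el_eq_zero h5 hI (hermN_lt _ _)] at hv
  have h := H15.allBlocks_eq_true look_ok hn
  simp only [lookOk, Bool.and_eq_true, Bool.or_eq_true, Nat.beq_eq, Nat.blt, Nat.ble_eq,
    Nat.succ_le_iff, Bool.not_eq_true', ← Bool.not_eq_true] at h
  obtain ⟨hi, he⟩ := (h.resolve_left (by simp [hn0, hv]))
  have hen : enc I (code25 n) = el I (Nat.mod (H15.slot 12 lookData n) 32) •
      enc I (pt (Nat.div (H15.slot 12 lookData n) 32)) :=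
    (congrArg (enc I) he).trans (enc_smulN h5 hI _ _)
  set l := el I (Nat.mod (H15.slot 12 lookData n) 32) with hl
  have hl0 : l ≠ 0 := fun h0 => hv0 (by rw [hen, h0, zero_smul])
  have h24 : l ^ 24 = 1 := by
    have h := FiniteField.pow_card_sub_one_eq_one l hl0
    rwa [hF] at h
  obtain ⟨g, hg, hgt⟩ := pt_mem hF hI hi (c * l ^ 6) (by
    linear_combination l ^ 6 * hc + l ^ 6 * c ^ 5 * h24)
  have hA' : UTrans.IsTr (enc I (code25 n)) c A := hA
  rw [hen] at hA'
  rw [(hA'.smul (card_eq_sq hF)).eq hgt]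
  exact hg

theorem setFix_ne_top : setFix I ≠ ⊤ := by
  intro htop
  have h5 := five_eq_zero hF
  have hg := ctr_lt hF hI (show 0 < 3 by norm_num)
  obtain ⟨σ, hσ, h0⟩ := (htop.symm ▸ Subgroup.mem_top (tp hF hI hg) : tp hF hI hg ∈ setFix I)
  obtain ⟨k, hk⟩ := hσ 0 _ ⟨4, rfl⟩
  rw [h0, lineMap_span] at hk
  change F ∙ (unitaryTransvection 3 5 (enc I (ctr 0)) I *ᵥ enc I (setPt 0 4)) =
    F ∙ enc I (setPt 0 k) at hk
  rw [← tN_enc h5 hI] at hk
  obtain ⟨a, ha⟩ := Submodule.mem_span_singleton.1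
    (hk ▸ Submodule.mem_span_singleton_self (enc I (tN (ctr 0) (setPt 0 4))))
  obtain ⟨l, hl, rfl⟩ := el_surjective h5 hI hF a
  rw [← enc_smulN h5 hI] at ha
  have hk' : l * 105 + (k : ℕ) < 2625 := by omega
  have h := H15.allBlocks_eq_true out_ok hk'
  have e1 : Nat.div (l * 105 + (k : ℕ)) 105 = l := by
    show (l * 105 + (k : ℕ)) / 105 = l
    omega
  have e2 : Nat.mod (l * 105 + (k : ℕ)) 105 = k := by
    show (l * 105 + (k : ℕ)) % 105 = k
    omega
  simp only [outOk, e1, e2, Bool.not_eq_true', ← Bool.not_eq_true, Nat.beq_eq] at h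
  apply h
  have hdig : ∀ (m : ℕ) (i : Fin 3), dig (tN (ctr 0) (setPt 0 4)) i < 25 ∧ dig (smulN l m) i < 25 :=
    fun m i => ⟨by rw [tN, addN, dig_pack3 (fun _ => lt_trans (fadd_lt _ _) (by norm_num))]
                   exact fadd_lt _ _,
      by rw [smulN, dig_pack3 (fun _ => lt_trans (fmul_lt _ _) (by norm_num))]; exact fmul_lt _ _⟩
  have hd : ∀ i : Fin 3, dig (smulN l (setPt 0 k)) i = dig (tN (ctr 0) (setPt 0 4)) i := fun i =>
    el_injOn h5 hI (hdig _ i).2 (hdig (setPt 0 k) i).1 (congrFun ha i)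
  have hb : ∀ f : ℕ → ℕ, (∀ i, f i < 32) → pack3 f = dig (pack3 f) 0 + 32 * dig (pack3 f) 1
      + 1024 * dig (pack3 f) 2 := fun f hf => by
    have := dig_pack3 hf 0; have := dig_pack3 hf 1; have := dig_pack3 hf 2
    simp only [Fin.val_zero, Fin.val_one, Fin.val_two] at *
    simp only [*]
    simp only [pack3, Nat.add_eq, Nat.mul_eq]
    ring
  have d0 := hd 0; have d1 := hd 1; have d2 := hd 2
  simp only [Fin.val_zero, Fin.val_one, Fin.val_two] at d0 d1 d2
  rw [show tN (ctr 0) (setPt 0 4) = _ from hb _ (fun _ => lt_trans (fadd_lt _ _) (by norm_num)),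
    show smulN l (setPt 0 k) = _ from hb _ (fun _ => lt_trans (fmul_lt _ _) (by norm_num))]
  exact congrArg₂ (· + ·) (congrArg₂ (· + ·) d0.symm (congrArg _ d1.symm)) (congrArg _ d2.symm)

theorem setFix_index_le : (setFix I).index ≤ 50 := by
  classical
  have hall : ∀ g : SU 3 F 5, ∃ σ, Induces I g σ := fun g =>
    (show g ∈ permuting I from (permuting_eq_top hF hI).symm ▸ Subgroup.mem_top g)
  choose σ hσ using hall
  rw [Subgroup.index_eq_card]
  refine le_trans (Nat.card_le_card_of_injective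
    (fun x : SU 3 F 5 ⧸ setFix I => σ x.out 0) fun a b h => ?_) (by simp)
  rw [← QuotientGroup.out_eq' a, ← QuotientGroup.out_eq' b, QuotientGroup.eq]
  refine ⟨(σ a.out)⁻¹ * σ b.out, (hσ a.out).inv.mul (hσ b.out), ?_⟩
  simp only at h
  rw [Equiv.Perm.mul_apply, ← h, Equiv.Perm.inv_eq_iff_eq]

end

/-- The minimal index in `PSU(3, 5)` is 50. -/
theorem min_index [Fintype F] (hF : Fintype.card F = 25) :
    (∀ H : Subgroup (PSU 3 F 5), H ≠ ⊤ → 50 ≤ H.index) ∧
      ∃ H : Subgroup (PSU 3 F 5), H.index = 50 := by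
  set π := QuotientGroup.mk' (Subgroup.center (SU 3 F 5)) with hπ
  have hsurj : Function.Surjective π := QuotientGroup.mk'_surjective _
  have hlow : ∀ H : Subgroup (PSU 3 F 5), H ≠ ⊤ → 50 ≤ H.index := fun H hH => by
    rw [← Subgroup.index_comap_of_surjective H hsurj]
    exact index_ge hF _ fun h => hH (Subgroup.comap_injective hsurj (h.trans (Subgroup.comap_top π).symm))
  refine ⟨hlow, ?_⟩
  obtain ⟨I, hI'⟩ := (FiniteField.isSquare_two_iff (F := F)).2 (by rw [hF]; decide)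
  have hI := hI'.symm
  have hker : π.ker ≤ setFix I := fun g hg => by
    rw [hπ, QuotientGroup.ker_mk', H3.mem_center_SU_iff (card_eq_sq hF) (by norm_num)] at hg
    obtain ⟨l, hl⟩ := hg
    refine ⟨1, fun j L hL => ?_, rfl⟩
    obtain ⟨i, rfl⟩ := hL
    refine ⟨i, ?_⟩
    rw [lineMap_span, hl]
    have hl0 : l ≠ 0 := fun h0 => by
      have := congrFun (hl (Pi.single 0 1)) 0
      have e := H3.SU_mulVec_ne_zero g (x := (Pi.single 0 1 : Fin 3 → F)) (by simp)
      rw [hl, h0, zero_smul] at e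
      exact e rfl
    exact Submodule.span_singleton_smul_eq hl0.isUnit _
  refine ⟨(setFix I).map π, ?_⟩
  have hidx : ((setFix I).map π).index = (setFix I).index := Subgroup.index_map_eq _ hsurj hker
  have h1 := setFix_index_le hF hI
  have h2 := hlow ((setFix I).map π) fun h => setFix_ne_top hF hI (by
    rw [← Subgroup.comap_map_eq_self hker, h, Subgroup.comap_top])
  omega

end Cfsg.Agent.H14.U35
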