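import Cfsg.Agent.H14.U35.Codes
import Cfsg.Agent.H14.U35.Data
import Cfsg.Agent.H15.OrbitCheck

/-! Kernel checks for the family of 50 point sets. -/

set_option autoImplicit false

namespace Cfsg.Agent.H14.U35

open H15 (slot allBlocks)

/-- The `i`-th isotropic point. -/
def pt (i : ℕ) : ℕ := slot 15 ptData i

/-- The centre of a generator. -/
def ctr (g : ℕ) : ℕ := pt (genPts.getD g 0)

/-- The `i`-th point of the `j`-th set. -/
def setPt (j i : ℕ) : ℕ := slot 15 setData (Nat.add (Nat.mul 105 j) i)

/-- The image of a set under a generator. -/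
def setTo (g j : ℕ) : ℕ := slot 6 setImg (Nat.add (Nat.mul 50 g) j)

/-- The position and scalar of the image of a point. -/
def ptTo (g j i : ℕ) : ℕ := slot 15 pointImg (Nat.add (Nat.mul 5250 g) (Nat.add (Nat.mul 105 j) i))

/-- The tree edge at a point. -/
def edge (i : ℕ) : ℕ := slot 15 ptEdges i

/-- The code with the base 25 digits of `n`. -/
def code25 (n : ℕ) : ℕ := pack3 fun i => Nat.mod (Nat.div n (Nat.pow 25 i)) 25

/-- The test at a point. -/
noncomputable def ptOk (i : ℕ) : Bool :=
  Nat.beq (hermN (pt i) (pt i)) 0 && (Nat.beq i 0 || (Nat.blt (Nat.div (edge i) 256) i &&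
    Nat.blt (Nat.mod (Nat.div (edge i) 32) 8) 3 && !(Nat.beq (Nat.mod (edge i) 32) 0) &&
    Nat.blt (Nat.mod (edge i) 32) 25 &&
    Nat.beq (tN (ctr (Nat.mod (Nat.div (edge i) 32) 8)) (pt (Nat.div (edge i) 256)))
      (smulN (Nat.mod (edge i) 32) (pt i))))

/-- The test at a code. -/
noncomputable def lookOk (n : ℕ) : Bool :=
  Nat.beq n 0 || !(Nat.beq (hermN (code25 n) (code25 n)) 0) ||
    (Nat.blt (Nat.div (slot 12 lookData n) 32) 126 &&
    Nat.beq (code25 n)
      (smulN (Nat.mod (slot 12 lookData n) 32) (pt (Nat.div (slot 12 lookData n) 32))))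

/-- The test at a generator, a set and a point. -/
noncomputable def imgOk (g j i : ℕ) : Bool :=
  Nat.blt (setTo g j) 50 && Nat.blt (Nat.div (ptTo g j i) 32) 105 &&
    Nat.blt (Nat.mod (ptTo g j i) 32) 25 && !(Nat.beq (Nat.mod (ptTo g j i) 32) 0) &&
    Nat.beq (tN (ctr g) (setPt j i))
      (smulN (Nat.mod (ptTo g j i) 32) (setPt (setTo g j) (Nat.div (ptTo g j i) 32)))

/-- The test that a moved point leaves the first set. -/
noncomputable def outOk (k : ℕ) : Bool :=
  !(Nat.beq (tN (ctr 0) (setPt 0 4)) (smulN (Nat.div k 105) (setPt 0 (Nat.mod k 105))))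

theorem pt_ok : allBlocks ptOk 126 = true := by decide +kernel

theorem look_ok : allBlocks lookOk 15625 = true := by decide +kernel

theorem img_ok : allBlocks (fun k =>
    imgOk (Nat.div k 5250) (Nat.mod (Nat.div k 105) 50) (Nat.mod k 105)) 15750 = true := by
  decide +kernel

theorem out_ok : allBlocks outOk 2625 = true := by decide +kernel

theorem genPts_ok : (genPts.all fun i => Nat.blt i 126) = true ∧ genPts.length = 3 ∧
    genPts.getD 0 0 = 0 := by decide +kernel

end Cfsg.Agent.H14.U35
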