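import Cfsg.Agent.H3.Isotropic

/-!
Vectors of a three-dimensional space over the field with 25 elements as 15-bit codes: the element
`a + b i`, `i * i = 2`, has the code `a + 5 b`.
-/

set_option autoImplicit false

namespace Cfsg.Agent.H14.U35

open Matrix

/-- Sum of two field codes. -/
def fadd (a b : ℕ) : ℕ :=
  Nat.add (Nat.mod (Nat.add a b) 5) (Nat.mul 5 (Nat.mod (Nat.add (Nat.div a 5) (Nat.div b 5)) 5))

/-- Product of two field codes. -/
def fmul (a b : ℕ) : ℕ :=
  Nat.add (Nat.mod (Nat.add (Nat.mul a b) (Nat.mul 2 (Nat.mul (Nat.div a 5) (Nat.div b 5)))) 5)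
    (Nat.mul 5 (Nat.mod (Nat.add (Nat.mul a (Nat.div b 5)) (Nat.mul (Nat.div a 5) b)) 5))

/-- Conjugate of a field code. -/
def fconj (a : ℕ) : ℕ := Nat.add (Nat.mod a 5) (Nat.mul 5 (Nat.mod (Nat.mul 4 (Nat.div a 5)) 5))

/-- The `i`-th digit. -/
def dig (n i : ℕ) : ℕ := Nat.land (Nat.shiftRight n (Nat.mul 5 i)) 31

/-- Three digits packed. -/
def pack3 (f : ℕ → ℕ) : ℕ := Nat.add (f 0) (Nat.add (Nat.mul 32 (f 1)) (Nat.mul 1024 (f 2)))

/-- Sum of two codes. -/
def addN (a b : ℕ) : ℕ := pack3 fun i => fadd (dig a i) (dig b i)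

/-- Scalar multiple of a code. -/
def smulN (l n : ℕ) : ℕ := pack3 fun i => fmul l (dig n i)

/-- The Hermitian form on codes. -/
def hermN (a b : ℕ) : ℕ :=
  fadd (fmul (dig a 0) (fconj (dig b 0)))
    (fadd (fmul (dig a 1) (fconj (dig b 1))) (fmul (dig a 2) (fconj (dig b 2))))

/-- The transvection with centre `v` and coefficient `i`, on codes. -/
def tN (v x : ℕ) : ℕ := addN x (smulN (fmul 5 (hermN x v)) v)

theorem fadd_lt (a b : ℕ) : fadd a b < 25 := by
  simp only [fadd, Nat.add_eq, Nat.mul_eq]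
  show (a + b) % 5 + 5 * ((a / 5 + b / 5) % 5) < 25
  omega

theorem fmul_lt (a b : ℕ) : fmul a b < 25 := by
  simp only [fmul, Nat.add_eq, Nat.mul_eq]
  show (a * b + 2 * (a / 5 * (b / 5))) % 5 + 5 * ((a * (b / 5) + a / 5 * b) % 5) < 25
  omega

theorem hermN_lt (a b : ℕ) : hermN a b < 25 := fadd_lt _ _

theorem dig_eq (n j : ℕ) : dig n j = n / 2 ^ (5 * j) % 32 := by
  show (n >>> (5 * j)) &&& 31 = _
  rw [Nat.shiftRight_eq_div_pow]
  exact Nat.and_two_pow_sub_one_eq_mod _ 5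

theorem dig_pack3 {f : ℕ → ℕ} (hf : ∀ i, f i < 32) (i : Fin 3) : dig (pack3 f) i = f i := by
  have h0 := hf 0; have h1 := hf 1; have h2 := hf 2
  simp only [dig_eq, pack3, Nat.add_eq, Nat.mul_eq]
  fin_cases i <;> dsimp <;> norm_num <;> omega

variable {F : Type*} [Field F] (I : F)

/-- The field element with a code. -/
def el (a : ℕ) : F := (a : F) + ((a / 5 : ℕ) : F) * I

/-- The vector with a code. -/
def enc (n : ℕ) : Fin 3 → F := fun i => el I (dig n i)

section
variable {I} (h5 : (5 : F) = 0) (hI : I * I = 2)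
include h5

theorem cast_mod (n : ℕ) : ((n % 5 : ℕ) : F) = n := by
  conv_rhs => rw [← Nat.mod_add_div n 5]
  push_cast
  rw [h5, zero_mul, add_zero]

theorem el_pair {x y : ℕ} (hx : x < 5) : el I (x + 5 * y) = (x : F) + (y : F) * I := by
  rw [el, show (x + 5 * y) / 5 = y by omega]
  push_cast
  rw [h5]
  ring

theorem el_fadd (a b : ℕ) : el I (fadd a b) = el I a + el I b := by
  show el I ((a + b) % 5 + 5 * ((a / 5 + b / 5) % 5)) = _
  rw [el_pair h5 (Nat.mod_lt _ (by norm_num)), cast_mod h5, cast_mod h5, el, el]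
  push_cast
  ring

theorem el_five : el I 5 = I := by
  show el I (0 + 5 * 1) = I
  rw [el_pair h5 (by norm_num)]
  simp

include hI

theorem el_fmul (a b : ℕ) : el I (fmul a b) = el I a * el I b := by
  show el I ((a * b + 2 * (a / 5 * (b / 5))) % 5 + 5 * ((a * (b / 5) + a / 5 * b) % 5)) = _
  rw [el_pair h5 (Nat.mod_lt _ (by norm_num)), cast_mod h5, cast_mod h5, el, el]
  push_cast
  linear_combination (-((a / 5 : ℕ) : F) * ((b / 5 : ℕ) : F)) * hI

omit hI in
theorem cast_pow_five (n : ℕ) : (n : F) ^ 5 = n := by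
  rw [← cast_mod h5 n]
  have : n % 5 = 0 ∨ n % 5 = 1 ∨ n % 5 = 2 ∨ n % 5 = 3 ∨ n % 5 = 4 := by omega
  rcases this with e | e | e | e | e <;> rw [e] <;> push_cast
  · ring
  · ring
  · linear_combination 6 * h5
  · linear_combination 48 * h5
  · linear_combination 204 * h5

theorem el_fconj (a : ℕ) : el I (fconj a) = el I a ^ 5 := by
  show el I (a % 5 + 5 * (4 * (a / 5) % 5)) = _
  rw [el_pair h5 (Nat.mod_lt _ (by norm_num)), cast_mod h5, cast_mod h5, el]
  push_cast
  have h1 := cast_pow_five h5 a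
  have h2 := cast_pow_five h5 (a / 5)
  generalize ((a : ℕ) : F) = x at h1 ⊢
  generalize ((a / 5 : ℕ) : F) = y at h2 ⊢
  linear_combination -h1 - 4 * I * h2 - y ^ 5 * I * (I * I + 2) * hI +
    (-(x ^ 4 * y * I) - 2 * x ^ 3 * y ^ 2 * I ^ 2 - 2 * x ^ 2 * y ^ 3 * I ^ 3
      - x * y ^ 4 * I ^ 4) * h5

theorem el_eq_zero {a : ℕ} (ha : a < 25) : el I a = 0 ↔ a = 0 := by
  refine ⟨fun h => ?_, fun h => by rw [h]; simp [el]⟩
  by_contra h0
  have key : ∀ a : Fin 25, (a : ℕ) ≠ 0 → ∃ b : Fin 25, fmul a b = 1 := by decide +kernel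
  obtain ⟨b, hb⟩ := key ⟨a, ha⟩ h0
  have e := el_fmul h5 hI a b
  rw [hb, h, zero_mul] at e
  simp [el] at e

theorem el_injOn {a b : ℕ} (ha : a < 25) (hb : b < 25) (h : el I a = el I b) : a = b := by
  have h' : el I (fadd a (fmul 4 b)) = 0 := by
    rw [el_fadd h5, el_fmul h5 hI, h]
    have e2 : el I 4 = (4 : F) := by simp [el]
    rw [e2]
    linear_combination el I b * h5
  have key : ∀ a : Fin 25, ∀ b : Fin 25, fadd a (fmul 4 b) = 0 → (a : ℕ) = b := by decide +kernel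
  exact key ⟨a, ha⟩ ⟨b, hb⟩ ((el_eq_zero h5 hI (fadd_lt _ _)).1 h')

theorem el_surjective [Fintype F] (hF : Fintype.card F = 25) (x : F) : ∃ a < 25, el I a = x := by
  have hbij : Function.Bijective fun a : Fin 25 => el I (a : ℕ) :=
    (Fintype.bijective_iff_injective_and_card _).2
      ⟨fun a b h => Fin.ext (el_injOn h5 hI a.2 b.2 h), by simp [hF]⟩
  obtain ⟨a, rfl⟩ := hbij.2 x
  exact ⟨a, a.2, rfl⟩

omit hI in
theorem enc_addN (a b : ℕ) : enc I (addN a b) = enc I a + enc I b := by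
  funext i
  simp only [enc, Pi.add_apply, addN, dig_pack3 (fun _ => lt_trans (fadd_lt _ _) (by norm_num)),
    el_fadd h5]

theorem enc_smulN (l n : ℕ) : enc I (smulN l n) = el I l • enc I n := by
  funext i
  simp only [enc, Pi.smul_apply, smul_eq_mul, smulN,
    dig_pack3 (fun _ => lt_trans (fmul_lt _ _) (by norm_num)), el_fmul h5 hI]

theorem hermForm_enc (a b : ℕ) : hermForm 3 F 5 (enc I a) (enc I b) = el I (hermN a b) := by
  simp only [hermN, el_fadd h5, el_fmul h5 hI, el_fconj h5 hI, hermForm, enc, Fin.sum_univ_three,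
    Fin.val_zero, Fin.val_one, Fin.val_two]
  ring

theorem tN_enc (v x : ℕ) :
    enc I (tN v x) = unitaryTransvection 3 5 (enc I v) I *ᵥ enc I x := by
  rw [H3.unitaryTransvection_mulVec, tN, enc_addN h5, enc_smulN h5 hI, el_fmul h5 hI,
    hermForm_enc h5 hI, el_five h5]

end

end Cfsg.Agent.H14.U35
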